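import Mathlib
import Cfsg.Prelude.Def_RootSubgroups

/-!
# Project Siegel (S5072): interface

Siegel transvection groups `T(ℓ)`, `ℓ` a singular line of the hyperbolic quadratic space
`F^{2n}`, `Q(x, y) = Σ xᵢ yᵢ`.  Definitions, basic lemmas (proved here) and one closed `Prop`
per package; see the plan notes (topic S5072) for the paper proofs.
-/

set_option autoImplicit false
open scoped Matrix

namespace Cfsg.Agent.Lib.Helper31.Siegel

universe u

/-- The vectors of `F^{2n}`. -/
abbrev Vec (n : ℕ) (F : Type u) : Type u := Fin n ⊕ Fin n → F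

/-- The hyperbolic quadratic form. -/
abbrev QF (n : ℕ) (F : Type u) [Field F] : Vec n F → F := Cfsg.quadFormPlus n F

/-- The polar form `B(u, v) = Q(u + v) - Q(u) - Q(v)`. -/
def B {n : ℕ} {F : Type u} [Field F] (u v : Vec n F) : F := QF n F (u + v) - QF n F u - QF n F v

/-- The isometry group of `Q`, a subgroup of `GL`. -/
abbrev Iso (n : ℕ) (F : Type u) [Field F] : Subgroup (Matrix.GeneralLinearGroup (Fin n ⊕ Fin n) F) :=
  Cfsg.isometryGroup F (Cfsg.quadFormPlus n F)

/-- The matrix of an isometry. -/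
abbrev mat {n : ℕ} {F : Type u} [Field F] (σ : ↥(Iso n F)) :
    Matrix (Fin n ⊕ Fin n) (Fin n ⊕ Fin n) F :=
  ((σ : Matrix.GeneralLinearGroup (Fin n ⊕ Fin n) F) : Matrix (Fin n ⊕ Fin n) (Fin n ⊕ Fin n) F)

/-- `p, r` span a singular line. -/
def IsSingLine {n : ℕ} {F : Type u} [Field F] (p r : Vec n F) : Prop :=
  LinearIndependent F ![p, r] ∧ QF n F p = 0 ∧ QF n F r = 0 ∧ QF n F (p + r) = 0

/-- The isometries fixing every vector perpendicular to `p` and `r` (written as in the statement). -/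
def fixSet {n : ℕ} {F : Type u} [Field F] (p r : Vec n F) : Set ↥(Iso n F) :=
  {σ | ∀ v : Vec n F, QF n F (v + p) - QF n F v - QF n F p = 0 →
    QF n F (v + r) - QF n F v - QF n F r = 0 → mat σ *ᵥ v = v}

/-- The Siegel transvection group of the line `⟨p, r⟩` (as in the statement). -/
def T {n : ℕ} {F : Type u} [Field F] (p r : Vec n F) : Subgroup ↥(Iso n F) :=
  Subgroup.closure (fixSet p r)

/-- The set of all Siegel transvection groups. -/
def Sig (n : ℕ) (F : Type u) [Field F] : Set (Subgroup ↥(Iso n F)) :=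
  {A | ∃ p r : Vec n F, IsSingLine p r ∧ A = T p r}

/-- `σ` is the Siegel transvection `v ↦ v + c B(v, r) p - c B(v, p) r`. -/
def IsSiegel {n : ℕ} {F : Type u} [Field F] (p r : Vec n F) (c : F) (σ : ↥(Iso n F)) : Prop :=
  ∀ v : Vec n F, mat σ *ᵥ v = v + (c * B v r) • p - (c * B v p) • r

/-- `(p', r')` is another basis of the plane spanned by `(p, r)`. -/
def Reb {n : ℕ} {F : Type u} [Field F] (p r p' r' : Vec n F) : Prop :=
  ∃ a b c d : F, a * d - b * c ≠ 0 ∧ p' = a • p + b • r ∧ r' = c • p + d • r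

/-- The Gram determinant of `(p, r)` against `(x, y)` is non-zero: the lines are opposite. -/
def Opp {n : ℕ} {F : Type u} [Field F] (p r x y : Vec n F) : Prop :=
  B p x * B r y - B p y * B r x ≠ 0

/-! ## Basic lemmas -/

section Basic

variable {n : ℕ} {F : Type u} [Field F]

theorem B_apply (u v : Vec n F) :
    B u v = ∑ i : Fin n, (u (Sum.inl i) * v (Sum.inr i) + u (Sum.inr i) * v (Sum.inl i)) := by
  unfold B QF Cfsg.quadFormPlus
  simp only [Pi.add_apply]
  rw [← Finset.sum_sub_distrib, ← Finset.sum_sub_distrib]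
  apply Finset.sum_congr rfl
  intro i _
  ring

theorem B_comm (u v : Vec n F) : B u v = B v u := by
  rw [B_apply, B_apply]
  apply Finset.sum_congr rfl
  intro i _
  ring

theorem B_add_left (u u' v : Vec n F) : B (u + u') v = B u v + B u' v := by
  rw [B_apply, B_apply, B_apply, ← Finset.sum_add_distrib]
  apply Finset.sum_congr rfl
  intro i _
  simp only [Pi.add_apply]
  ring

theorem B_add_right (u v v' : Vec n F) : B u (v + v') = B u v + B u v' := by
  rw [B_comm, B_add_left, B_comm v u, B_comm v' u]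

theorem B_smul_left (c : F) (u v : Vec n F) : B (c • u) v = c * B u v := by
  rw [B_apply, B_apply, Finset.mul_sum]
  apply Finset.sum_congr rfl
  intro i _
  simp only [Pi.smul_apply, smul_eq_mul]
  ring

theorem B_smul_right (c : F) (u v : Vec n F) : B u (c • v) = c * B u v := by
  rw [B_comm, B_smul_left, B_comm v u]

theorem B_zero_left (v : Vec n F) : B (0 : Vec n F) v = 0 := by
  rw [B_apply]; simp

theorem B_zero_right (u : Vec n F) : B u (0 : Vec n F) = 0 := by
  rw [B_comm, B_zero_left]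

theorem B_neg_left (u v : Vec n F) : B (-u) v = -B u v := by
  have h := B_smul_left (-1 : F) u v
  simpa using h

theorem B_neg_right (u v : Vec n F) : B u (-v) = -B u v := by
  rw [B_comm, B_neg_left, B_comm v u]

theorem B_sub_left (u u' v : Vec n F) : B (u - u') v = B u v - B u' v := by
  rw [sub_eq_add_neg, B_add_left, B_neg_left]; ring

theorem B_sub_right (u v v' : Vec n F) : B u (v - v') = B u v - B u v' := by
  rw [sub_eq_add_neg, B_add_right, B_neg_right]; ring

theorem Q_add (u v : Vec n F) : QF n F (u + v) = QF n F u + QF n F v + B u v := by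
  unfold B; ring

theorem Q_smul (c : F) (u : Vec n F) : QF n F (c • u) = c * c * QF n F u := by
  unfold QF Cfsg.quadFormPlus
  rw [Finset.mul_sum]
  apply Finset.sum_congr rfl
  intro i _
  simp only [Pi.smul_apply, smul_eq_mul]
  ring

theorem Q_zero : QF n F (0 : Vec n F) = 0 := by
  unfold QF Cfsg.quadFormPlus; simp

theorem Q_neg (u : Vec n F) : QF n F (-u) = QF n F u := by
  have h := Q_smul (-1 : F) u
  simpa using h

theorem Q_sub (u v : Vec n F) : QF n F (u - v) = QF n F u + QF n F v - B u v := by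
  rw [sub_eq_add_neg, Q_add, Q_neg, B_neg_right]; ring

theorem B_self (u : Vec n F) : B u u = 2 * QF n F u := by
  rw [B_apply]
  unfold QF Cfsg.quadFormPlus
  rw [Finset.mul_sum]
  apply Finset.sum_congr rfl
  intro i _
  ring

/-- `B` is non-degenerate. -/
theorem eq_zero_of_B (u : Vec n F) (h : ∀ v : Vec n F, B u v = 0) : u = 0 := by
  classical
  funext j
  rcases j with i | i
  · have h1 := h (Pi.single (Sum.inr i) 1)
    rw [B_apply] at h1
    rw [Finset.sum_eq_single i] at h1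
    · simpa using h1
    · intro k _ hk
      simp [hk]
    · intro hi
      exact absurd (Finset.mem_univ i) hi
  · have h1 := h (Pi.single (Sum.inl i) 1)
    rw [B_apply] at h1
    rw [Finset.sum_eq_single i] at h1
    · simpa using h1
    · intro k _ hk
      simp [hk]
    · intro hi
      exact absurd (Finset.mem_univ i) hi

theorem mem_fixSet {p r : Vec n F} {σ : ↥(Iso n F)} :
    σ ∈ fixSet p r ↔ ∀ v : Vec n F, B v p = 0 → B v r = 0 → mat σ *ᵥ v = v := Iff.rfl

theorem Q_act (σ : ↥(Iso n F)) (v : Vec n F) : QF n F (mat σ *ᵥ v) = QF n F v :=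
  σ.2 v v

theorem B_act (σ : ↥(Iso n F)) (u v : Vec n F) : B (mat σ *ᵥ u) (mat σ *ᵥ v) = B u v := by
  unfold B
  rw [← Matrix.mulVec_add, Q_act, Q_act, Q_act]

theorem mul_act (σ τ : ↥(Iso n F)) (v : Vec n F) : mat (σ * τ) *ᵥ v = mat σ *ᵥ (mat τ *ᵥ v) := by
  rw [Matrix.mulVec_mulVec]; rfl

theorem one_act (v : Vec n F) : mat (1 : ↥(Iso n F)) *ᵥ v = v := by
  simp [mat]

theorem inv_act (σ : ↥(Iso n F)) (v : Vec n F) : mat σ⁻¹ *ᵥ (mat σ *ᵥ v) = v := by
  rw [← mul_act, inv_mul_cancel, one_act]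

theorem act_inv (σ : ↥(Iso n F)) (v : Vec n F) : mat σ *ᵥ (mat σ⁻¹ *ᵥ v) = v := by
  rw [← mul_act, mul_inv_cancel, one_act]

/-- An isometry is determined by its action on vectors. -/
theorem ext_act {σ τ : ↥(Iso n F)} (h : ∀ v : Vec n F, mat σ *ᵥ v = mat τ *ᵥ v) : σ = τ := by
  apply Subtype.ext
  apply Units.ext
  exact Matrix.ext_of_mulVec_single fun i => h (Pi.single i 1)

theorem isSiegel_ext {p r : Vec n F} {c : F} {σ τ : ↥(Iso n F)} (hσ : IsSiegel p r c σ)
    (hτ : IsSiegel p r c τ) : σ = τ :=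
  ext_act fun v => by rw [hσ v, hτ v]

end Basic

/-! ## Packages (closed `Prop`s; paper proofs in the plan notes, topic S5072) -/

/-- [DUAL] dual vectors of an independent family (tool; non-degeneracy of `B`). -/
def PkgDual : Prop :=
  ∀ (n : ℕ) (F : Type u) [Field F] (k : ℕ) (w : Fin k → Vec n F), LinearIndependent F w →
    ∃ w' : Fin k → Vec n F, ∀ i j, B (w i) (w' j) = if i = j then 1 else 0

/-- [PARAM] the elements of `T p r` are exactly the Siegel transvections. -/
def PkgParam : Prop :=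
  ∀ (n : ℕ) (F : Type u) [Field F] (p r : Vec n F), IsSingLine p r →
    ∀ σ : ↥(Iso n F), σ ∈ T p r ↔ ∃ c : F, IsSiegel p r c σ

/-- [EXIST] every Siegel transvection exists as an isometry. -/
def PkgExist : Prop :=
  ∀ (n : ℕ) (F : Type u) [Field F] (p r : Vec n F), IsSingLine p r →
    ∀ c : F, ∃ σ : ↥(Iso n F), IsSiegel p r c σ

/-- [ALG] the algebra of Siegel transvections of one line. -/
def PkgAlg : Prop :=
  ∀ (n : ℕ) (F : Type u) [Field F] (p r : Vec n F), IsSingLine p r →
    IsSiegel p r 0 (1 : ↥(Iso n F)) ∧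
    (∀ (c d : F) (σ τ : ↥(Iso n F)), IsSiegel p r c σ → IsSiegel p r d τ →
      IsSiegel p r (c + d) (σ * τ)) ∧
    (∀ (c : F) (σ : ↥(Iso n F)), IsSiegel p r c σ → IsSiegel p r (-c) σ⁻¹) ∧
    (∀ (c : F) (σ : ↥(Iso n F)), IsSiegel p r c σ → (σ = 1 ↔ c = 0)) ∧
    (∀ (c : F) (σ : ↥(Iso n F)), IsSiegel p r c σ → IsSiegel r p (-c) σ) ∧
    IsSingLine r p

/-- [CONJ] conjugation by an isometry `g` moves `T(ℓ)` to `T(gℓ)`. -/
def PkgConj : Prop :=
  ∀ (n : ℕ) (F : Type u) [Field F] (p r : Vec n F), IsSingLine p r → ∀ g : ↥(Iso n F),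
    IsSingLine (mat g *ᵥ p) (mat g *ᵥ r) ∧
      Cfsg.conjBy (T p r) g = T (mat g *ᵥ p) (mat g *ᵥ r)

/-- [REBASE] `T` depends only on the line. -/
def PkgRebase : Prop :=
  ∀ (n : ℕ) (F : Type u) [Field F] (p r p' r' : Vec n F), IsSingLine p r → Reb p r p' r' →
    IsSingLine p' r' ∧ T p' r' = T p r

/-- [COMM1] perpendicular lines: the transvections commute. -/
def PkgComm1 : Prop :=
  ∀ (n : ℕ) (F : Type u) [Field F] (p r s t : Vec n F), IsSingLine p r → IsSingLine s t →
    B p s = 0 → B p t = 0 → B r s = 0 → B r t = 0 →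
    ∀ (c d : F) (σ τ : ↥(Iso n F)), IsSiegel p r c σ → IsSiegel s t d τ → σ * τ = τ * σ

/-- [COMM2] lines with a common point: the transvections commute. -/
def PkgComm2 : Prop :=
  ∀ (n : ℕ) (F : Type u) [Field F] (p r s : Vec n F), IsSingLine p r → IsSingLine p s →
    ∀ (c d : F) (σ τ : ↥(Iso n F)), IsSiegel p r c σ → IsSiegel p s d τ → σ * τ = τ * σ

/-- [COMR] the commutator formula `[T_{p,r}(c), T_{s,t}(d)] = T_{s,p}(cd)`. -/
def PkgComr : Prop :=
  ∀ (n : ℕ) (F : Type u) [Field F] (p r s t : Vec n F), IsSingLine p r → IsSingLine s t →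
    B p s = 0 → B p t = 0 → B r s = 0 → B r t = 1 →
    ∀ (c d : F) (σ τ : ↥(Iso n F)), IsSiegel p r c σ → IsSiegel s t d τ →
      IsSiegel s p (c * d) (σ * τ * σ⁻¹ * τ⁻¹)

/-- [CCASE] the commutator case, at the level of subgroups of the isometry group. -/
def PkgCCase : Prop :=
  ∀ (n : ℕ) (F : Type u) [Field F] (p r s t : Vec n F), IsSingLine p r → IsSingLine s t →
    IsSingLine s p → B p s = 0 → B p t = 0 → B r s = 0 → B r t = 1 →
    ⁅T p r, T s t⁆ = T s p ∧
    (∀ z ∈ T s p, ∀ x ∈ T p r ⊔ T s t, z * x = x * z) ∧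
    (∀ a ∈ T p r, a ≠ 1 → Subgroup.closure
      ((fun b : ↥(Iso n F) => a * b * a⁻¹ * b⁻¹) '' (T s t : Set ↥(Iso n F))) = T s p) ∧
    (∀ b ∈ T s t, b ≠ 1 → Subgroup.closure
      ((fun a : ↥(Iso n F) => a * b * a⁻¹ * b⁻¹) '' (T p r : Set ↥(Iso n F))) = T s p)

/-- [NOTR1] in the commutator configuration the pair is not a rank one pair. -/
def PkgNotR1 : Prop :=
  ∀ (n : ℕ) (F : Type u) [Field F] (p r s t : Vec n F), IsSingLine p r → IsSingLine s t →
    IsSingLine s p → B p s = 0 → B p t = 0 → B r s = 0 → B r t = 1 →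
    ¬ Cfsg.IsRankOnePair (T p r) (T s t)

/-- [CLASSIFY] the relative positions of two singular lines. -/
def PkgClassify : Prop :=
  ∀ (n : ℕ) (F : Type u) [Field F] (p r s t : Vec n F), IsSingLine p r → IsSingLine s t →
    (B p s = 0 ∧ B p t = 0 ∧ B r s = 0 ∧ B r t = 0) ∨
    (∃ p' r' t' : Vec n F, Reb p r p' r' ∧ Reb s t p' t') ∨
    (∃ p' r' s' t' : Vec n F, Reb p r p' r' ∧ Reb s t s' t' ∧ IsSingLine s' p' ∧
      B p' s' = 0 ∧ B p' t' = 0 ∧ B r' s' = 0 ∧ B r' t' = 1) ∨
    Opp p r s t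

/-- [NORMOPP] normalisation of an opposite line to a dual basis. -/
def PkgNormOpp : Prop :=
  ∀ (n : ℕ) (F : Type u) [Field F] (p r x y : Vec n F), Opp p r x y →
    ∃ x' y' : Vec n F, Reb x y x' y' ∧ B p x' = 1 ∧ B r y' = 1 ∧ B p y' = 0 ∧ B r x' = 0

/-- [SL2] opposite lines (dual bases): an image of `SL₂(F)`. -/
def PkgSL2 : Prop :=
  ∀ (n : ℕ) (F : Type u) [Field F] (p r s t : Vec n F), IsSingLine p r → IsSingLine s t →
    B p s = 1 → B r t = 1 → B p t = 0 → B r s = 0 →
    Cfsg.IsPSL2PairOver F (T p r) (T s t)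

/-- [R1] opposite lines (dual bases): a rank one pair. -/
def PkgR1 : Prop :=
  ∀ (n : ℕ) (F : Type u) [Field F] (p r s t : Vec n F), IsSingLine p r → IsSingLine s t →
    B p s = 1 → B r t = 1 → B p t = 0 → B r s = 0 →
    Cfsg.IsRankOnePair (T p r) (T s t)

/-- [MEET] two singular lines can be rebased so that their first vectors coincide or span a
singular line. -/
def PkgMeet : Prop :=
  ∀ (n : ℕ) (F : Type u) [Field F] (p r s t : Vec n F), IsSingLine p r → IsSingLine s t →
    ∃ p' r' s' t' : Vec n F, Reb p r p' r' ∧ Reb s t s' t' ∧ (p' = s' ∨ IsSingLine p' s')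

/-- [CONN2A] two lines through `p` spanning a totally singular plane have a common opposite. -/
def PkgConn2A : Prop :=
  ∀ (n : ℕ) (F : Type u) [Field F] (p r s : Vec n F), IsSingLine p r → IsSingLine p s →
    LinearIndependent F ![p, r, s] → B r s = 0 →
    ∃ x y : Vec n F, IsSingLine x y ∧ Opp p r x y ∧ Opp p s x y

/-- [CONN2B] two lines through `p` with `B r s ≠ 0` have a common opposite (`n ≥ 3`). -/
def PkgConn2B : Prop :=
  ∀ (n : ℕ) (F : Type u) [Field F] (p r s : Vec n F), 3 ≤ n → IsSingLine p r → IsSingLine p s →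
    B r s ≠ 0 →
    ∃ x y : Vec n F, IsSingLine x y ∧ Opp p r x y ∧ Opp p s x y

/-- [CONN2C] the same line given twice has an opposite. -/
def PkgConn2C : Prop :=
  ∀ (n : ℕ) (F : Type u) [Field F] (p r s : Vec n F), IsSingLine p r → IsSingLine p s →
    ¬ LinearIndependent F ![p, r, s] →
    ∃ x y : Vec n F, IsSingLine x y ∧ Opp p r x y ∧ Opp p s x y

end Cfsg.Agent.Lib.Helper31.Siegel
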