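import Mathlib
import Cfsg.Agent.Lib.Helper31.Siegel.Defs
import Cfsg.Agent.Lib.Helper99.SubOf

/-!
# Project Siegel (S5072): assembly from the packages
-/

set_option autoImplicit false
open scoped Matrix

namespace Cfsg.Agent.Lib.Helper31.Siegel

universe u

section Generic

variable {G : Type*} [Group G]

theorem conjBy_inv_eq_of_commute {A : Subgroup G} {g : G} (h : ∀ a ∈ A, a * g = g * a) :
    Cfsg.conjBy A g⁻¹ = A := by
  ext x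
  rw [Cfsg.Agent.Lib.Helper99.mem_conjBy_iff]
  constructor
  · intro hy
    have hyg := h _ hy
    have e : x = g⁻¹ * ((g⁻¹⁻¹ * x * g⁻¹) * g) := by group
    rw [e, hyg, ← mul_assoc, inv_mul_cancel, one_mul]
    exact hy
  · intro hx
    have hxg := h x hx
    have e : g⁻¹⁻¹ * x * g⁻¹ = x := by
      rw [inv_inv, ← hxg, mul_assoc, mul_inv_cancel, mul_one]
    rw [e]
    exact hx

theorem not_rankOne_of_commute {A B : Subgroup G} (hA : ∃ a ∈ A, a ≠ 1)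
    (hcomm : ∀ a ∈ A, ∀ b ∈ B, a * b = b * a) : ¬ Cfsg.IsRankOnePair A B := by
  intro h
  obtain ⟨a, ha, ha1⟩ := hA
  obtain ⟨b, hb, -, hconj⟩ := h.cond_left a ha ha1
  apply h.ne
  have h1 : Cfsg.conjBy A b⁻¹ = A := conjBy_inv_eq_of_commute fun x hx => hcomm x hx b hb
  have h2 : Cfsg.conjBy B a⁻¹ = B := conjBy_inv_eq_of_commute fun y hy => (hcomm a ha y hy).symm
  rw [← h1, hconj, h2]

theorem commCase_subgroupOf {S : Set (Subgroup G)} {H A B C : Subgroup G}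
    (hA : A ≤ H) (hB : B ≤ H) (hC : C ≤ H) (hCS : C ∈ S)
    (hcomm : ⁅A, B⁆ = C)
    (hcent : ∀ z ∈ C, ∀ x ∈ A ⊔ B, z * x = x * z)
    (hl : ∀ a ∈ A, a ≠ 1 →
      Subgroup.closure ((fun b : G => a * b * a⁻¹ * b⁻¹) '' (B : Set G)) = C)
    (hr : ∀ b ∈ B, b ≠ 1 →
      Subgroup.closure ((fun a : G => a * b * a⁻¹ * b⁻¹) '' (A : Set G)) = C) :
    Cfsg.RootCommutatorCase ((fun K : Subgroup G => K.subgroupOf H) '' S)
      (A.subgroupOf H) (B.subgroupOf H) := by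
  have hinj : Function.Injective (Subgroup.map H.subtype) :=
    Subgroup.map_injective H.subtype_injective
  have hmapA : (A.subgroupOf H).map H.subtype = A := by
    rw [Subgroup.subgroupOf_map_subtype, inf_eq_left.2 hA]
  have hmapB : (B.subgroupOf H).map H.subtype = B := by
    rw [Subgroup.subgroupOf_map_subtype, inf_eq_left.2 hB]
  have hmapC : (C.subgroupOf H).map H.subtype = C := by
    rw [Subgroup.subgroupOf_map_subtype, inf_eq_left.2 hC]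
  have hcomm' : ⁅A.subgroupOf H, B.subgroupOf H⁆ = C.subgroupOf H := by
    apply hinj
    rw [Subgroup.map_commutator, hmapA, hmapB, hmapC, hcomm]
  refine ⟨?_, ?_, ?_, ?_⟩
  · rw [hcomm']
    exact ⟨C, hCS, rfl⟩
  · intro c hc x hx
    rw [hcomm'] at hc
    apply Subtype.ext
    have hx' : (x : G) ∈ A ⊔ B := by
      have hx2 : (x : G) ∈ (A.subgroupOf H ⊔ B.subgroupOf H).map H.subtype := ⟨x, hx, rfl⟩
      rw [Subgroup.map_sup, hmapA, hmapB] at hx2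
      exact hx2
    exact hcent c.1 hc x.1 hx'
  · intro a ha ha1
    rw [hcomm']
    apply hinj
    rw [hmapC, MonoidHom.map_closure, ← hl a.1 ha (fun h => ha1 (Subtype.ext h))]
    congr 1
    ext y
    constructor
    · rintro ⟨_, ⟨b, hb, rfl⟩, rfl⟩
      exact ⟨b.1, hb, rfl⟩
    · rintro ⟨b, hb, rfl⟩
      exact ⟨_, ⟨⟨b, hB hb⟩, hb, rfl⟩, rfl⟩
  · intro b hb hb1
    rw [hcomm']
    apply hinj
    rw [hmapC, MonoidHom.map_closure, ← hr b.1 hb (fun h => hb1 (Subtype.ext h))]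
    congr 1
    ext y
    constructor
    · rintro ⟨_, ⟨a, ha, rfl⟩, rfl⟩
      exact ⟨a.1, ha, rfl⟩
    · rintro ⟨a, ha, rfl⟩
      exact ⟨_, ⟨⟨a, hA ha⟩, ha, rfl⟩, rfl⟩

end Generic

section Assembly

variable {n : ℕ} {F : Type u} [Field F]

theorem T_mem_Sig {p r : Vec n F} (h : IsSingLine p r) : T p r ∈ Sig n F := ⟨p, r, h, rfl⟩

theorem T_comm (hP : PkgParam.{u}) (hA : PkgAlg.{u}) {p r : Vec n F} (h : IsSingLine p r) :
    IsMulCommutative (T p r) := by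
  refine ⟨⟨fun a b => ?_⟩⟩
  obtain ⟨c, hc⟩ := (hP n F p r h a.1).1 a.2
  obtain ⟨d, hd⟩ := (hP n F p r h b.1).1 b.2
  obtain ⟨-, hmul, -⟩ := hA n F p r h
  apply Subtype.ext
  have h1 := hmul c d a.1 b.1 hc hd
  have h2 := hmul d c b.1 a.1 hd hc
  rw [add_comm] at h2
  exact isSiegel_ext h1 h2

theorem T_exists_ne_one (hP : PkgParam.{u}) (hE : PkgExist.{u}) (hA : PkgAlg.{u})
    {p r : Vec n F} (h : IsSingLine p r) : ∃ a ∈ T p r, a ≠ 1 := by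
  obtain ⟨σ, hσ⟩ := hE n F p r h 1
  have hmem : σ ∈ T p r := (hP n F p r h σ).2 ⟨1, hσ⟩
  obtain ⟨-, -, -, hone, -⟩ := hA n F p r h
  exact ⟨σ, hmem, fun h1 => one_ne_zero ((hone 1 σ hσ).1 h1)⟩

theorem T_ne_bot (hP : PkgParam.{u}) (hE : PkgExist.{u}) (hA : PkgAlg.{u})
    {p r : Vec n F} (h : IsSingLine p r) : T p r ≠ ⊥ := by
  obtain ⟨a, ha, ha1⟩ := T_exists_ne_one hP hE hA h
  intro hbot
  rw [hbot, Subgroup.mem_bot] at ha
  exact ha1 ha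

theorem pair_cases (hP : PkgParam.{u}) (hReb : PkgRebase.{u}) (hC1 : PkgComm1.{u})
    (hC2 : PkgComm2.{u}) (hCC : PkgCCase.{u}) (hN : PkgNotR1.{u}) (hCl : PkgClassify.{u})
    (hNO : PkgNormOpp.{u}) (hSL : PkgSL2.{u}) (hR : PkgR1.{u})
    {p r s t : Vec n F} (h1 : IsSingLine p r) (h2 : IsSingLine s t) :
    (∀ a ∈ T p r, ∀ b ∈ T s t, a * b = b * a) ∨
    (Cfsg.IsRankOnePair (T p r) (T s t) ∧ Cfsg.IsPSL2PairOver F (T p r) (T s t)) ∨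
    (¬ Cfsg.IsRankOnePair (T p r) (T s t) ∧ ∃ C ∈ Sig n F, ⁅T p r, T s t⁆ = C ∧
      (∀ z ∈ C, ∀ x ∈ T p r ⊔ T s t, z * x = x * z) ∧
      (∀ a ∈ T p r, a ≠ 1 → Subgroup.closure
        ((fun b : ↥(Iso n F) => a * b * a⁻¹ * b⁻¹) '' (T s t : Set ↥(Iso n F))) = C) ∧
      (∀ b ∈ T s t, b ≠ 1 → Subgroup.closure
        ((fun a : ↥(Iso n F) => a * b * a⁻¹ * b⁻¹) '' (T p r : Set ↥(Iso n F))) = C)) := by
  rcases hCl n F p r s t h1 h2 with ⟨e1, e2, e3, e4⟩ | ⟨p', r', t', hr1, hr2⟩ |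
    ⟨p', r', s', t', hr1, hr2, hsp, e1, e2, e3, e4⟩ | hopp
  · left
    intro a ha b hb
    obtain ⟨c, hc⟩ := (hP n F p r h1 a).1 ha
    obtain ⟨d, hd⟩ := (hP n F s t h2 b).1 hb
    exact hC1 n F p r s t h1 h2 e1 e2 e3 e4 c d a b hc hd
  · left
    obtain ⟨hl1, hT1⟩ := hReb n F p r p' r' h1 hr1
    obtain ⟨hl2, hT2⟩ := hReb n F s t p' t' h2 hr2
    intro a ha b hb
    rw [← hT1] at ha
    rw [← hT2] at hb
    obtain ⟨c, hc⟩ := (hP n F p' r' hl1 a).1 ha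
    obtain ⟨d, hd⟩ := (hP n F p' t' hl2 b).1 hb
    exact hC2 n F p' r' t' hl1 hl2 c d a b hc hd
  · right; right
    obtain ⟨hl1, hT1⟩ := hReb n F p r p' r' h1 hr1
    obtain ⟨hl2, hT2⟩ := hReb n F s t s' t' h2 hr2
    rw [← hT1, ← hT2]
    exact ⟨hN n F p' r' s' t' hl1 hl2 hsp e1 e2 e3 e4, T s' p', T_mem_Sig hsp,
      hCC n F p' r' s' t' hl1 hl2 hsp e1 e2 e3 e4⟩
  · right; left
    obtain ⟨s', t', hr2, e1, e2, e3, e4⟩ := hNO n F p r s t hopp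
    obtain ⟨hl2, hT2⟩ := hReb n F s t s' t' h2 hr2
    rw [← hT2]
    exact ⟨hR n F p r s' t' h1 hl2 e1 e2 e3 e4, hSL n F p r s' t' h1 hl2 e1 e2 e3 e4⟩

theorem adj_of_opp (hReb : PkgRebase.{u}) (hNO : PkgNormOpp.{u}) (hR : PkgR1.{u})
    {p r x y : Vec n F} (h1 : IsSingLine p r) (h2 : IsSingLine x y) (ho : Opp p r x y) :
    Cfsg.FAdj (Sig n F) (T p r) (T x y) := by
  obtain ⟨x', y', hr2, e1, e2, e3, e4⟩ := hNO n F p r x y ho
  obtain ⟨hl2, hT2⟩ := hReb n F x y x' y' h2 hr2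
  refine ⟨T_mem_Sig h1, T_mem_Sig h2, ?_⟩
  rw [← hT2]
  exact hR n F p r x' y' h1 hl2 e1 e2 e3 e4

theorem adj_symm {A B : Subgroup ↥(Iso n F)} (h : Cfsg.FAdj (Sig n F) A B) :
    Cfsg.FAdj (Sig n F) B A :=
  ⟨h.2.1, h.1, Cfsg.RankOnePair_symm h.2.2⟩

theorem conn2 (hReb : PkgRebase.{u}) (hNO : PkgNormOpp.{u}) (hR : PkgR1.{u})
    (h2A : PkgConn2A.{u}) (h2B : PkgConn2B.{u}) (h2C : PkgConn2C.{u}) (hn : 3 ≤ n)
    {p r s : Vec n F} (h1 : IsSingLine p r) (h2 : IsSingLine p s) :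
    Relation.ReflTransGen (Cfsg.FAdj (Sig n F)) (T p r) (T p s) := by
  have key : ∃ x y : Vec n F, IsSingLine x y ∧ Opp p r x y ∧ Opp p s x y := by
    by_cases hb : B r s = 0
    · by_cases hli : LinearIndependent F ![p, r, s]
      · exact h2A n F p r s h1 h2 hli hb
      · exact h2C n F p r s h1 h2 hli
    · exact h2B n F p r s hn h1 h2 hb
  obtain ⟨x, y, hxy, ho1, ho2⟩ := key
  exact Relation.ReflTransGen.tail
    (Relation.ReflTransGen.single (adj_of_opp hReb hNO hR h1 hxy ho1))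
    (adj_symm (adj_of_opp hReb hNO hR h2 hxy ho2))

theorem connected (hReb : PkgRebase.{u}) (hNO : PkgNormOpp.{u}) (hR : PkgR1.{u})
    (hM : PkgMeet.{u}) (h2A : PkgConn2A.{u}) (h2B : PkgConn2B.{u}) (h2C : PkgConn2C.{u})
    (hn : 3 ≤ n) : Cfsg.IsConnectedFamily (Cfsg.FAdj (Sig n F)) (Sig n F) := by
  rintro A ⟨p, r, h1, rfl⟩ B ⟨s, t, h2, rfl⟩
  obtain ⟨p', r', s', t', hr1, hr2, hcase⟩ := hM n F p r s t h1 h2
  obtain ⟨hl1, hT1⟩ := hReb n F p r p' r' h1 hr1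
  obtain ⟨hl2, hT2⟩ := hReb n F s t s' t' h2 hr2
  rw [← hT1, ← hT2]
  rcases hcase with heq | hps
  · subst heq
    exact conn2 hReb hNO hR h2A h2B h2C hn hl1 hl2
  · have hswap : Reb p' s' s' p' := ⟨0, 1, 1, 0, by norm_num, by simp, by simp⟩
    obtain ⟨hl3, hT3⟩ := hReb n F p' s' s' p' hps hswap
    have c1 := conn2 hReb hNO hR h2A h2B h2C hn hl1 hps
    have c2 := conn2 hReb hNO hR h2A h2B h2C hn hl3 hl2
    rw [hT3] at c2
    exact c1.trans c2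

theorem main5072 (hP : PkgParam.{u}) (hE : PkgExist.{u}) (hA : PkgAlg.{u}) (hConj : PkgConj.{u})
    (hReb : PkgRebase.{u}) (hC1 : PkgComm1.{u}) (hC2 : PkgComm2.{u}) (hCC : PkgCCase.{u})
    (hN : PkgNotR1.{u}) (hCl : PkgClassify.{u}) (hNO : PkgNormOpp.{u}) (hSL : PkgSL2.{u})
    (hR : PkgR1.{u}) (hM : PkgMeet.{u}) (h2A : PkgConn2A.{u}) (h2B : PkgConn2B.{u})
    (h2C : PkgConn2C.{u}) (hn : 3 ≤ n) :
    Cfsg.IsKRootSubgroupSet F
      ((fun A : Subgroup ↥(Iso n F) => A.subgroupOf (⨆ B ∈ Sig n F, B)) '' Sig n F) ∧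
    Cfsg.IsConnectedFamily (Cfsg.FAdj (Sig n F)) (Sig n F) := by
  have hle : ∀ A ∈ Sig n F, A ≤ ⨆ B ∈ Sig n F, B := fun A hA =>
    Cfsg.Agent.Lib.Helper99.le_biSup_mem hA
  refine ⟨⟨⟨?_, ?_, ?_, ?_, ?_⟩, ?_⟩, connected hReb hNO hR hM h2A h2B h2C hn⟩
  · rintro _ ⟨A, ⟨p, r, h1, rfl⟩, rfl⟩
    exact Cfsg.Agent.Lib.Helper99.subgroupOf_isMulCommutative _ (T_comm hP hA h1)
  · rintro _ ⟨A, ⟨p, r, h1, rfl⟩, rfl⟩
    exact Cfsg.Agent.Lib.Helper99.subgroupOf_ne_bot (hle _ (T_mem_Sig h1)) (T_ne_bot hP hE hA h1)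
  · exact Cfsg.Agent.Lib.Helper99.iSup_subgroupOf_eq_top (Sig n F) _ le_rfl hle
  · rintro _ ⟨A, ⟨p, r, h1, rfl⟩, rfl⟩ g
    rw [Cfsg.Agent.Lib.Helper99.conjBy_subgroupOf]
    obtain ⟨hl, hT⟩ := hConj n F p r h1 (g : ↥(Iso n F))
    exact ⟨_, ⟨_, _, hl, hT⟩, rfl⟩
  · rintro _ ⟨A, ⟨p, r, h1, rfl⟩, rfl⟩ _ ⟨B, ⟨s, t, h2, rfl⟩, rfl⟩
    rcases pair_cases hP hReb hC1 hC2 hCC hN hCl hNO hSL hR h1 h2 with hc | ⟨hr, -⟩ |
      ⟨-, C, hCS, hcomm, hcent, hl, hr⟩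
    · left
      apply Cfsg.Agent.Lib.Helper99.subgroupOf_commutator_eq_bot
      rw [Subgroup.commutator_eq_bot_iff_le_centralizer]
      intro a ha
      rw [Subgroup.mem_centralizer_iff]
      intro b hb
      exact (hc a ha b hb).symm
    · right; left
      exact Cfsg.Agent.Lib.Helper99.subgroupOf_rankOne (hle _ (T_mem_Sig h1))
        (hle _ (T_mem_Sig h2)) (T_comm hP hA h1) (T_comm hP hA h2) hr
    · right; right
      exact commCase_subgroupOf (hle _ (T_mem_Sig h1)) (hle _ (T_mem_Sig h2)) (hle _ hCS) hCS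
        hcomm hcent hl hr
  · rintro _ ⟨A, ⟨p, r, h1, rfl⟩, rfl⟩ _ ⟨B, ⟨s, t, h2, rfl⟩, rfl⟩ hrk
    have hrk' : Cfsg.IsRankOnePair (T p r) (T s t) :=
      Cfsg.Agent.Lib.Helper99.rankOne_of_subgroupOf (hle _ (T_mem_Sig h1))
        (hle _ (T_mem_Sig h2)) (T_comm hP hA h1) (T_comm hP hA h2) hrk
    rcases pair_cases hP hReb hC1 hC2 hCC hN hCl hNO hSL hR h1 h2 with hc | ⟨-, hpsl⟩ |
      ⟨hnot, -⟩
    · exact absurd hrk' (not_rankOne_of_commute (T_exists_ne_one hP hE hA h1) hc)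
    · exact Cfsg.Agent.Lib.Helper99.psl2_subgroupOf (hle _ (T_mem_Sig h1))
        (hle _ (T_mem_Sig h2)) hpsl
    · exact absurd hrk' hnot

end Assembly

end Cfsg.Agent.Lib.Helper31.Siegel
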